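import Cfsg.Agent.H484.RIM.Main
import Cfsg.Agent.H484.RIM.O73Mat
import Cfsg.Agent.H524.RIM.EK
import Cfsg.Agent.UGT.U2.Rec.Congr
import Cfsg.Agent.S0292

/-!
# S4816, the row `Ω₇(3)` for the primes 5, 7, 13 (helper484)

`ek_five`, `ek_seven`, `ek_thirteen` : `EK p S` for `S ≃* PΩ₇(3)`, `kill_o73`.
-/

set_option autoImplicit false
set_option linter.unusedSectionVars false
set_option linter.style.haveILetI false

namespace Cfsg.Agent.H484.RIM

open Cfsg Cfsg.Agent.H484.RIM.O73Mat Cfsg.Agent.H665.RIM Cfsg.Agent.H524.RIM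

universe u

/-- the data in `S` -/
structure Dat (S : Type*) [Group S] : Prop where
  ex : ∃ a0 a1 a2 y t x5 g5 x7 g7 z : S, Three a0 a1 a2 y t ∧ x5 ^ 5 = 1 ∧ y * g5 = x5 * (g5 * x5) ∧ x7 ^ 7 = 1 ∧
    y * g7 = x7 * (g7 * x7) ∧ z * x5 = x5 ^ 2 * z
  card : Nat.card S = 4585351680

theorem ex_quot {G : Type*} [Group G] {a0 a1 a2 y t x5 g5 x7 g7 z : G} (c01 : a0 * a1 = a1 * a0)
    (c02 : a0 * a2 = a2 * a0) (y0 : y * a0 = a1 * y) (y1 : y * a1 = a2 * y) (y2 : y * a2 = a0 * a1 * y)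
    (t0 : t * a0 = a0 * t) (t1 : t * a1 = a1 * t) (t2 : t * a2 = a2 * a0 * t) (cube : a0 ^ 3 = 1) (y13 : y ^ 13 = 1)
    (x5_5 : x5 ^ 5 = 1) (yx5 : y * g5 = x5 * (g5 * x5)) (x7_7 : x7 ^ 7 = 1) (yx7 : y * g7 = x7 * (g7 * x7))
    (z5 : z * x5 = x5 ^ 2 * z) (a_ne : a0 ≠ a1) :
    ∃ a0 a1 a2 y t x5 g5 x7 g7 z : G ⧸ Subgroup.center G, Three a0 a1 a2 y t ∧ x5 ^ 5 = 1 ∧
    y * g5 = x5 * (g5 * x5) ∧ x7 ^ 7 = 1 ∧ y * g7 = x7 * (g7 * x7) ∧ z * x5 = x5 ^ 2 * z := by
  let q : G →* G ⧸ Subgroup.center G := QuotientGroup.mk' _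
  refine ⟨q a0, q a1, q a2, q y, q t, q x5, q g5, q x7, q g7, q z, ⟨?_, ?_, ?_, ?_, ?_, ?_, ?_, ?_,
    ?_, ?_, ?_⟩, ?_, ?_, ?_, ?_, ?_⟩
  · rw [← map_mul, ← map_mul, c01]
  · rw [← map_mul, ← map_mul, c02]
  · rw [← map_mul, ← map_mul, y0]
  · rw [← map_mul, ← map_mul, y1]
  · rw [← map_mul, ← map_mul, ← map_mul, y2]
  · rw [← map_mul, ← map_mul, t0]
  · rw [← map_mul, ← map_mul, t1]
  · rw [← map_mul, ← map_mul, ← map_mul, t2]
  · intro h
    have h1 : a0 ∈ Subgroup.center G := (QuotientGroup.eq_one_iff _).1 h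
    have h2 := Subgroup.mem_center_iff.1 h1 y
    rw [y0] at h2
    exact a_ne (mul_right_cancel h2).symm
  · rw [← map_pow, cube, map_one]
  · rw [← map_pow, y13, map_one]
  · rw [← map_pow, x5_5, map_one]
  · rw [← map_mul, ← map_mul, ← map_mul, yx5]
  · rw [← map_pow, x7_7, map_one]
  · rw [← map_mul, ← map_mul, ← map_mul, yx7]
  · rw [← map_pow, ← map_mul, ← map_mul, z5]

theorem ex_S0 : ∃ a0 a1 a2 y t x5 g5 x7 g7 z : POmega R (quadFormOdd 3 R), Three a0 a1 a2 y t ∧ x5 ^ 5 = 1 ∧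
    y * g5 = x5 * (g5 * x5) ∧ x7 ^ 7 = 1 ∧ y * g7 = x7 * (g7 * x7) ∧ z * x5 = x5 ^ 2 * z :=
  ex_quot c01 c02 y0 y1 y2 t0 t1 t2 a3 y13 x5_5 yx5 x7_7 yx7 z5 a_ne

theorem Three.map {S T : Type*} [Group S] [Group T] (e : S ≃* T) {a0 a1 a2 y t : S} (h : Three a0 a1 a2 y t) :
    Three (e a0) (e a1) (e a2) (e y) (e t) where
  c01 := by rw [← map_mul, ← map_mul, h.c01]
  c02 := by rw [← map_mul, ← map_mul, h.c02]
  y0 := by rw [← map_mul, ← map_mul, h.y0]
  y1 := by rw [← map_mul, ← map_mul, h.y1]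
  y2 := by rw [← map_mul, ← map_mul, ← map_mul, h.y2]
  t0 := by rw [← map_mul, ← map_mul, h.t0]
  t1 := by rw [← map_mul, ← map_mul, h.t1]
  t2 := by rw [← map_mul, ← map_mul, ← map_mul, h.t2]
  ne := by rw [Ne, map_eq_one_iff e e.injective]; exact h.ne
  cube := by rw [← map_pow, h.cube, map_one]
  y13 := by rw [← map_pow, h.y13, map_one]

theorem dat {S : Type*} [Group S] {F : Type*} [Field F] [Fintype F] (hF : Fintype.card F = 3)
    (e : S ≃* POmega F (quadFormOdd 3 F)) : Dat S := by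
  have σ : R ≃+* F := FiniteField.ringEquivOfCardEq (by rw [ZMod.card, hF])
  obtain ⟨e1⟩ := Cfsg.Agent.UGT.U2.Rec.Congr.nonempty_POmegaOdd σ 3
  let f : POmega R (quadFormOdd 3 R) ≃* S := e1.trans e.symm
  constructor
  · obtain ⟨a0, a1, a2, y, t, x5, g5, x7, g7, z, h1, h2, h3, h4, h5, h6⟩ := ex_S0
    refine ⟨f a0, f a1, f a2, f y, f t, f x5, f g5, f x7, f g7, f z, h1.map f, ?_, ?_, ?_, ?_, ?_⟩
    · rw [← map_pow, h2, map_one]
    · rw [← map_mul, ← map_mul, ← map_mul, h3]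
    · rw [← map_pow, h4, map_one]
    · rw [← map_mul, ← map_mul, ← map_mul, h5]
    · rw [← map_pow, ← map_mul, ← map_mul, h6]
  · rw [Nat.card_congr e.toEquiv]
    have h := Cfsg.Agent.S0292.result (F := F) (q := 3) hF (by decide) 3 le_rfl
    have h2 : (3 : ℕ) ^ (3 ^ 2) * ∏ i ∈ Finset.range 3, (3 ^ (2 * (i + 1)) - 1) = 2 * 4585351680 := by
      rw [Finset.prod_range_succ, Finset.prod_range_succ, Finset.prod_range_succ, Finset.prod_range_zero]
      norm_num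
    rw [h2] at h
    exact Nat.eq_of_mul_eq_mul_left (by norm_num) h

section

variable {S : Type u} [Group S]

theorem y_ne {a0 a1 a2 y t : S} (h : Three a0 a1 a2 y t) : y ≠ 1 := by
  intro h1
  have e0 := h.y0
  have e1 := h.y1
  have e2 := h.y2
  rw [h1, one_mul, mul_one] at e0 e1 e2
  rw [← e1, ← e0] at e2
  exact h.ne (left_eq_mul.1 e2)

theorem x_ne {a0 a1 a2 y t x g : S} (h : Three a0 a1 a2 y t) (hxg : y * g = x * (g * x)) : x ≠ 1 := by
  intro h1
  rw [h1, one_mul, mul_one] at hxg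
  exact y_ne h (mul_eq_right.1 hxg)

theorem finite_of (D : Dat S) : Finite S := Nat.finite_of_card_ne_zero (by rw [D.card]; norm_num)

theorem ek_thirteen (D : Dat S) : EK 13 S := by
  haveI := finite_of D
  haveI : Fact (Nat.Prime 13) := ⟨by norm_num⟩
  obtain ⟨a0, a1, a2, y, t, x5, g5, x7, g7, z, h1, h2, h3, h4, h5, h6⟩ := D.ex
  refine ek_of Fact.out fun Hb _ _ σ hσ hσc _ hσp _ _ _ _ _ _ _ _ _ _ _ _ _ => noPEx_of_px fun V _ _ _ hPX => ?_
  have hxg : y * 1 = y ^ 7 * (1 * y ^ 7) := by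
    rw [mul_one, one_mul, ← pow_add, show 7 + 7 = 13 + 1 by norm_num, pow_add, h1.y13, one_mul, pow_one]
  refine px_false (p := 13) (by norm_num) hPX σ hσ hσc hσp h1 hxg ?_ (x_ne h1 hxg) ?_ ⊥ ?_ ?_
  · rw [← pow_mul, mul_comm, pow_mul, h1.y13, one_pow]
  · rw [D.card]; norm_num
  · intro m hm
    rw [Subgroup.mem_bot.1 hm, one_mul, inv_one, mul_one]
    exact Subgroup.mem_zpowers _
  · rw [D.card, Subgroup.card_bot]; norm_num

theorem ek_seven (D : Dat S) : EK 7 S := by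
  haveI := finite_of D
  haveI : Fact (Nat.Prime 7) := ⟨by norm_num⟩
  obtain ⟨a0, a1, a2, y, t, x5, g5, x7, g7, z, h1, h2, h3, h4, h5, h6⟩ := D.ex
  refine ek_of Fact.out fun Hb _ _ σ hσ hσc _ hσp _ _ _ _ _ _ _ _ _ _ _ _ _ => noPEx_of_px fun V _ _ _ hPX => ?_
  refine px_false (p := 7) (by norm_num) hPX σ hσ hσc hσp h1 h5 h4 (x_ne h1 h5) ?_ ⊥ ?_ ?_
  · rw [D.card]; norm_num
  · intro m hm
    rw [Subgroup.mem_bot.1 hm, one_mul, inv_one, mul_one]
    exact Subgroup.mem_zpowers _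
  · rw [D.card, Subgroup.card_bot]; norm_num

theorem ek_five (D : Dat S) : EK 5 S := by
  haveI := finite_of D
  haveI : Fact (Nat.Prime 5) := ⟨by norm_num⟩
  obtain ⟨a0, a1, a2, y, t, x, g, x7, g7, z, h1, h2, h3, h4, h5, h6⟩ := D.ex
  refine ek_of Fact.out fun Hb _ _ σ hσ hσc _ hσp _ _ _ _ _ _ _ _ _ _ _ _ _ => noPEx_of_px fun V _ _ _ hPX => ?_
  have hx1 := x_ne h1 h3
  have hord : orderOf x = 5 := orderOf_eq_prime h2 hx1
  let M : Subgroup S := Subgroup.closure {x, z}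
  have hxM : x ∈ M := Subgroup.subset_closure (by simp)
  have hzM : z ∈ M := Subgroup.subset_closure (by simp)
  have c1 : z * x * z⁻¹ = x ^ 2 := by rw [h6, mul_inv_cancel_right]
  refine px_false (p := 5) (by norm_num) hPX σ hσ hσc hσp h1 h3 h2 hx1 ?_ M ?_ ?_
  · rw [D.card]; norm_num
  · have hle : M ≤ Subgroup.normalizer ((Subgroup.zpowers x : Subgroup S) : Set S) := by
      rw [Subgroup.closure_le]
      rintro m hm
      haveI : Finite ((Subgroup.zpowers x : Subgroup S) : Set S) := inferInstanceAs (Finite (Subgroup.zpowers x))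
      apply Subgroup.mem_normalizer_fintype
      rintro _ ⟨j, rfl⟩
      change m * x ^ j * m⁻¹ ∈ _
      rw [← conj_zpow]
      apply zpow_mem
      rcases hm with rfl | hm
      · rw [mul_inv_cancel_right]
        exact Subgroup.mem_zpowers m
      · rw [Set.mem_singleton_iff.1 hm, c1]
        exact pow_mem (Subgroup.mem_zpowers x) 2
    intro m hm
    exact (Subgroup.mem_normalizer_iff.1 (hle hm) x).1 (Subgroup.mem_zpowers x)
  · have c5 : 5 ∣ Nat.card M := by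
      rw [← hord, ← Subgroup.orderOf_mk x hxM]
      exact orderOf_dvd_natCard _
    have c4 : 4 ∣ orderOf z := by
      have key : ∀ n : ℕ, z ^ n * x * (z ^ n)⁻¹ = x ^ (2 ^ n) := by
        intro n
        induction n with
        | zero => simp
        | succ n ih =>
          have : z ^ (n + 1) * x * (z ^ (n + 1))⁻¹ = z * (z ^ n * x * (z ^ n)⁻¹) * z⁻¹ := by rw [pow_succ']; group
          rw [this, ih, ← conj_pow, c1, ← pow_mul, pow_succ']
      have h7 := key (orderOf z)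
      rw [pow_orderOf_eq_one, one_mul, inv_one, mul_one] at h7
      have h8 : 2 ^ orderOf z ≡ 1 [MOD 5] := by
        rw [← hord, ← pow_eq_pow_iff_modEq, pow_one]
        exact h7.symm
      have h9 := Nat.div_add_mod (orderOf z) 4
      have h10 : orderOf z % 4 < 4 := Nat.mod_lt _ (by norm_num)
      rw [← h9, pow_add, pow_mul] at h8
      have h11 : (2 ^ 4) ^ (orderOf z / 4) ≡ 1 [MOD 5] := by
        have := Nat.ModEq.pow (orderOf z / 4) (show 2 ^ 4 ≡ 1 [MOD 5] by decide)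
        rwa [one_pow] at this
      have h12 := (Nat.ModEq.mul_right (2 ^ (orderOf z % 4)) h11).symm.trans h8
      rw [one_mul] at h12
      have h13 : orderOf z % 4 = 0 := by
        generalize orderOf z % 4 = r at *
        interval_cases r
        · rfl
        · exact absurd h12 (by decide)
        · exact absurd h12 (by decide)
        · exact absurd h12 (by decide)
      exact Nat.dvd_of_mod_eq_zero h13
    have c4' : 4 ∣ Nat.card M := by
      refine c4.trans ?_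
      rw [← Subgroup.orderOf_mk z hzM]
      exact orderOf_dvd_natCard _
    have c20 : 20 ∣ Nat.card M := Nat.Coprime.mul_dvd_of_dvd_of_dvd (by norm_num) c4' c5
    have := Nat.le_of_dvd Nat.card_pos c20
    rw [D.card]
    have h7 : 5 ^ 12 * 20 ≤ 5 ^ 12 * Nat.card M := Nat.mul_le_mul_left _ this
    refine lt_of_lt_of_le ?_ h7
    norm_num

end

/-- **The row `Ω₇(3)`**: the primes 5, 7, 13. -/
theorem kill_o73 {S : Type u} [Group S] {F : Type*} [Field F] [Fintype F] (hF : Fintype.card F = 3)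
    (e : S ≃* POmega F (quadFormOdd 3 F)) : Kill 5 S ∧ Kill 7 S ∧ Kill 13 S :=
  have D := dat hF e
  ⟨Or.inr (ek_five D), Or.inr (ek_seven D), Or.inr (ek_thirteen D)⟩

end Cfsg.Agent.H484.RIM
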